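import Cfsg.Agent.Lib.Char.Induce
import Cfsg.Agent.Lib.Char.Gen
import Cfsg.Prelude.Def_Solvable

/-!
# Frobenius' theorem: the Frobenius kernel is a normal subgroup
-/

set_option autoImplicit false

namespace Cfsg.Lib

open Subgroup
open scoped Pointwise ComplexConjugate

variable {G : Type*} [Group G]

theorem pg_mem_conj_smul_iff {H : Subgroup G} {g x : G} :
    x ∈ MulAut.conj g • H ↔ g⁻¹ * x * g ∈ H := by
  rw [mem_pointwise_smul_iff_inv_smul_mem, ← map_inv, MulAut.smul_def, MulAut.conj_apply, inv_inv]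

theorem pg_mem_of_frobeniusComplement {H : Subgroup G} (hH : IsFrobeniusComplement H) {a x : G}
    (ha : a ∈ H) (ha1 : a ≠ 1) (hx : x⁻¹ * a * x ∈ H) : x ∈ H := by
  by_contra h
  exact ha1 (mem_bot.mp (hH.2.2 x h ▸ mem_inf.mpr ⟨ha, pg_mem_conj_smul_iff.mpr hx⟩))

theorem pg_frobenius_exists_extension [Finite G] {H : Subgroup G} (hH : IsFrobeniusComplement H)
    {χ : H → ℂ} (hχ : IsIrrCharacter H χ) : ∃ ψ : G → ℂ, IsIrrCharacter G ψ ∧
      (∀ a : H, ψ a = χ a) ∧ ∀ x ∈ frobeniusKernel H, ψ x = ψ 1 := by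
  classical
  have := Fintype.ofFinite G
  obtain ⟨n, hn0, hn⟩ := hχ.exists_one_eq
  set θ : H → ℂ := χ - (n : ℂ) • (1 : H → ℂ) with hθ
  have hθg : IsGeneralizedCharacter H θ := hχ.isGen.sub (by
    simpa using isGen_one.intCast_smul (n : ℤ))
  have hθ1 : θ 1 = 0 := by simp [hθ, hn]
  have hres : ∀ a : H, indFun H θ a = θ a := fun a => by
    by_cases ha : a = 1
    · rw [ha, OneMemClass.coe_one, indFun_one, hθ1, mul_zero]
    · exact indFun_eq_of_ti H hθg.isClassFunction a fun x hx _ =>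
        pg_mem_of_frobeniusComplement hH a.2 (fun e => ha (Subtype.ext e)) hx
  set ψ : G → ℂ := indFun H θ + (n : ℂ) • (1 : G → ℂ) with hψ
  have hψg : IsGeneralizedCharacter G ψ := hθg.ind.add (by
    simpa using isGen_one.intCast_smul (n : ℤ))
  have hψχ : ∀ a : H, ψ a = χ a := fun a => by rw [hψ, Pi.add_apply, hres, hθ]; simp
  have hψ1 : ψ 1 = n := by rw [← hn]; exact hψχ 1
  have hinner : classInner ψ ψ = 1 := by
    have e : χ = θ + (n : ℂ) • (1 : H → ℂ) := by simp [hθ]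
    rw [← hχ.inner_self, e, hψ]
    simp only [classInner_add_left, classInner_add_right, classInner_smul_left,
      classInner_smul_right, classInner_one_one]
    rw [classInner_indFun_indFun H θ θ (fun a _ => hres a),
      classInner_indFun_left H θ isClassFunction_one, classInner_indFun_right H θ isClassFunction_one]
    rfl
  obtain ⟨φ, hφ, h | h⟩ := hψg.eq_of_inner_self_one hinner
  · refine ⟨ψ, h ▸ hφ, hψχ, fun x hx => ?_⟩
    rcases hx with rfl | hx
    · rfl
    · rw [hψ1, hψ, Pi.add_apply, indFun_eq_zero H θ fun y hy =>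
        absurd (pg_mem_conj_smul_iff.mpr hy) (hx y)]
      simp
  · obtain ⟨m, hm0, hm⟩ := hφ.exists_one_eq
    rw [h, Pi.neg_apply, hm] at hψ1
    have : ((n + m : ℕ) : ℂ) = 0 := by push_cast; linear_combination -hψ1
    rw [Nat.cast_eq_zero] at this
    omega

/-- **Frobenius' theorem**: the Frobenius kernel is a normal subgroup. -/
theorem pg_frobenius_kernel [Finite G] {H : Subgroup G} (hH : IsFrobeniusComplement H) :
    ∃ N : Subgroup G, (N : Set G) = frobeniusKernel H ∧ N.Normal := by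
  choose ψ h1 h2 h3 using fun χ : IrrCharacter H => pg_frobenius_exists_extension hH χ.2
  have hn : ∀ χ, (funKer (ψ χ)).Normal := fun χ => (h1 χ).isClassFunction.funKer_normal
  refine ⟨⨅ χ, funKer (ψ χ), Set.ext fun x => ⟨fun hx => ?_, fun hx => ?_⟩, normal_iInf_normal hn⟩
  · by_contra hc
    simp only [frobeniusKernel, Set.mem_ofPred_eq, not_or, not_forall, not_not] at hc
    obtain ⟨hx1, g, hg⟩ := hc
    rw [pg_mem_conj_smul_iff] at hg
    obtain ⟨χ, hχ, h⟩ := exists_irr_ne_of_ne_one (G := H) (g := ⟨_, hg⟩) (fun e => hx1 (by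
      have : g⁻¹ * x * g = 1 := congrArg Subtype.val e
      simpa [mul_assoc, inv_mul_eq_one] using this))
    have h4 := (h1 ⟨χ, hχ⟩).isCharacter.mem_funKer.mp
      ((hn ⟨χ, hχ⟩).conj_mem' x (mem_iInf.mp hx ⟨χ, hχ⟩) g)
    exact h ((h2 ⟨χ, hχ⟩ ⟨_, hg⟩).symm.trans (h4.trans (h2 ⟨χ, hχ⟩ 1)))
  · exact mem_iInf.mpr fun χ => (h1 χ).isCharacter.mem_funKer.mpr (h3 χ x hx)

end Cfsg.Lib
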