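import Cfsg.Agent.Lib.PGroup.Small

/-!
# Regular p-groups
-/

set_option autoImplicit false

namespace Cfsg.Lib

open Subgroup
open scoped commutatorElement Pointwise

universe u

/-- The first-power regularity condition. -/
def PgWeakRegular (p : ℕ) (G : Type*) [Group G] : Prop :=
  ∀ a b : G, ∃ c ∈ powerClosure p 1 ⁅closure ({a, b} : Set G), closure ({a, b} : Set G)⁆,
    (a * b) ^ p = a ^ p * b ^ p * c

variable {p : ℕ}

theorem PgWeakRegular.of_surjective {G G' : Type*} [Group G] [Group G'] (h : PgWeakRegular p G)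
    (f : G →* G') (hf : Function.Surjective f) : PgWeakRegular p G' := by
  intro a b
  obtain ⟨a, rfl⟩ := hf a
  obtain ⟨b, rfl⟩ := hf b
  obtain ⟨c, hc, he⟩ := h a b
  refine ⟨f c, ?_, by rw [← map_mul, ← map_pow, he, map_mul, map_mul, map_pow, map_pow]⟩
  have := mem_map_of_mem f hc
  rwa [pg_map_powerClosure, map_commutator, MonoidHom.map_closure, Set.image_pair] at this

theorem PgWeakRegular.of_injective {G G' : Type*} [Group G] [Group G'] (h : PgWeakRegular p G)
    (f : G' →* G) (hf : Function.Injective f) : PgWeakRegular p G' := by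
  intro a b
  obtain ⟨c, hc, he⟩ := h (f a) (f b)
  rw [← Set.image_pair, ← MonoidHom.map_closure, ← map_commutator, ← pg_map_powerClosure] at hc
  obtain ⟨c, hc, rfl⟩ := hc
  exact ⟨c, hc, hf (by simpa using he)⟩

theorem PgWeakRegular.subgroup {G : Type*} [Group G] (h : PgWeakRegular p G) (H : Subgroup G) :
    PgWeakRegular p H :=
  h.of_injective H.subtype H.subtype_injective

theorem pg_exists_coatom_mem_of_not_isCyclic {G : Type*} [Group G] [Finite G] (hc : ¬ IsCyclic G)
    (x : G) : ∃ M : Subgroup G, IsCoatom M ∧ x ∈ M := by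
  obtain ⟨M, hM, hx⟩ := pg_exists_coatom_ge (H := zpowers x)
    fun h => hc (pg_isCyclic_of_zpowers_eq_top h)
  exact ⟨M, hM, hx (mem_zpowers x)⟩

variable [hp : Fact p.Prime]

/-- In a regular `p`-group, `x ^ p = y ^ p` if and only if `(x⁻¹ y) ^ p = 1`. -/
theorem PgWeakRegular.pow_eq_pow_iff {G : Type u} [Group G] [Finite G] (hG : IsPGroup p G)
    (h : PgWeakRegular p G) (x y : G) : x ^ p = y ^ p ↔ (x⁻¹ * y) ^ p = 1 := by
  induction hn : Nat.card G using Nat.strong_induction_on generalizing G with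
  | _ n ih =>
  have ih' : ∀ H : Subgroup G, H ≠ ⊤ → ∀ a ∈ H, ∀ b ∈ H, (a ^ p = b ^ p ↔ (a⁻¹ * b) ^ p = 1) := by
    intro H hH a ha b hb
    have := ih _ (hn ▸ pg_card_subgroup_lt hH) (hG.to_subgroup H) (h.subgroup H) ⟨a, ha⟩ ⟨b, hb⟩ rfl
    simpa [Subtype.ext_iff] using this
  by_cases htop : closure ({x, y} : Set G) = ⊤
  swap
  · exact ih' _ htop x (subset_closure (by simp)) y (subset_closure (by simp))
  by_cases hc : IsCyclic G
  · have hxy : Commute x⁻¹ y := (isMulCommutative_iff.mp inferInstance) _ _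
    rw [hxy.mul_pow, inv_pow, inv_mul_eq_one]
  have hnt : Nontrivial G := by
    by_contra h0
    rw [not_nontrivial_iff_subsingleton] at h0
    exact hc inferInstance
  have hG' : commutator G ≠ ⊤ := fun h0 =>
    pg_frattini_ne_top (G := G) (top_le_iff.mp (h0 ▸ pg_commutator_le_frattini hG))
  -- the solutions of `c ^ p = 1` in `G'` form a normal subgroup
  let K : Subgroup G :=
    { carrier := {c | c ∈ commutator G ∧ c ^ p = 1}
      one_mem' := ⟨one_mem _, one_pow _⟩
      mul_mem' := fun {a b} ha hb => ⟨mul_mem ha.1 hb.1, by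
        have := (ih' _ hG' a⁻¹ (inv_mem ha.1) b hb.1).mp (by rw [inv_pow, ha.2, hb.2, inv_one])
        rwa [inv_inv] at this⟩
      inv_mem' := fun {a} ha => ⟨inv_mem ha.1, by rw [inv_pow, ha.2, inv_one]⟩ }
  have hKn : K.Normal := ⟨fun a ha g => ⟨Normal.conj_mem inferInstance a ha.1 g, by
    rw [conj_pow, ha.2]; group⟩⟩
  -- if `G = ⟨u, v⟩` with `u ^ p` central then `G'` has exponent `p`
  have key : ∀ u v : G, closure ({u, v} : Set G) = ⊤ → u ^ p ∈ center G →
      ∀ a b : G, (a * b) ^ p = a ^ p * b ^ p := by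
    intro u v huv hu a b
    obtain ⟨M, hM, huM⟩ := pg_exists_coatom_mem_of_not_isCyclic hc u
    have hMn := pg_normal_of_isCoatom hG hM
    have h1 : (u⁻¹ * (v * u * v⁻¹)) ^ p = 1 :=
      (ih' M hM.1 u huM _ (hMn.conj_mem u huM v)).mp (by
        rw [conj_pow, mem_center_iff.mp hu v, mul_inv_cancel_right])
    have h2 : ⁅u⁻¹, v⁆ ∈ K := ⟨commutator_mem_commutator (mem_top _) (mem_top _), by
      rw [← h1, commutatorElement_def]; congr 1; group⟩
    have h3 : ⁅u, v⁆ ∈ K := by
      have := hKn.conj_mem _ (inv_mem h2) u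
      convert this using 1
      simp only [commutatorElement_def]; group
    have h4 : commutator G ≤ K := by
      rw [_root_.commutator_def, ← huv]
      exact pg_commutator_closure_pair_le (le_normalizer_of_normal (mem_top u))
        (le_normalizer_of_normal (mem_top v)) h3
    obtain ⟨c, hc, he⟩ := h a b
    have : powerClosure p 1 ⁅closure ({a, b} : Set G), closure ({a, b} : Set G)⁆ ≤ ⊥ :=
      pg_powerClosure_le_iff.mpr fun w hw => by
        simpa using (h4 (commutator_mono le_top le_top hw)).2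
    rw [he, mem_bot.mp (this hc), mul_one]
  constructor
  · intro hxy
    have hx : x ^ p ∈ center G := by
      rw [← centralizer_univ, ← coe_top, ← htop, centralizer_closure, mem_centralizer_iff]
      rintro g (rfl | rfl)
      · exact ((Commute.refl g).pow_right p).eq
      · rw [hxy]; exact ((Commute.refl g).pow_right p).eq
    rw [key x y htop hx, inv_pow, hxy, inv_mul_cancel]
  · intro hxy
    have htop' : closure ({x⁻¹ * y, x} : Set G) = ⊤ := by
      rw [eq_top_iff, ← htop, Subgroup.closure_le]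
      have hx : x ∈ closure ({x⁻¹ * y, x} : Set G) := subset_closure (by simp)
      have hu : x⁻¹ * y ∈ closure ({x⁻¹ * y, x} : Set G) := subset_closure (by simp)
      rintro g (rfl | rfl)
      · exact hx
      · simpa using mul_mem hx hu
    have := key _ _ htop' (hxy ▸ one_mem _) x (x⁻¹ * y)
    rw [hxy, mul_one, mul_inv_cancel_left] at this
    exact this.symm

/-- The solutions of `x ^ p = 1` in a regular `p`-group. -/
theorem PgWeakRegular.mem_omegaOne_iff {G : Type u} [Group G] [Finite G] (hG : IsPGroup p G)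
    (h : PgWeakRegular p G) {H : Subgroup G} {x : G} : x ∈ omegaOne p H ↔ x ∈ H ∧ x ^ p = 1 := by
  refine ⟨fun hx => ⟨pg_omegaOne_le hx, ?_⟩, fun hx => pg_mem_omegaOne hx.1 hx.2⟩
  induction hx using closure_induction with
  | mem x hx => exact hx.2
  | one => simp
  | mul a b _ _ ha hb =>
    have := (h.pow_eq_pow_iff hG a⁻¹ b).mp (by rw [inv_pow, ha, hb, inv_one])
    rwa [inv_inv] at this
  | inv a _ ha => rw [inv_pow, ha, inv_one]

/-- In a regular `p`-group a product of `p`-th powers is a `p`-th power. -/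
theorem PgWeakRegular.exists_pow_of_mem_powerClosure_one {G : Type u} [Group G] [Finite G]
    (hG : IsPGroup p G) (h : PgWeakRegular p G) {w : G}
    (hw : w ∈ powerClosure p 1 (⊤ : Subgroup G)) : ∃ z : G, z ^ p = w := by
  induction hn : Nat.card G using Nat.strong_induction_on generalizing G with
  | _ n ih =>
  have ih' : ∀ H : Subgroup G, H ≠ ⊤ → ∀ w ∈ powerClosure p 1 H, ∃ z : G, z ^ p = w := by
    intro H hH w hw
    rw [← H.range_subtype, MonoidHom.range_eq_map, ← pg_map_powerClosure] at hw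
    obtain ⟨w, hw, rfl⟩ := hw
    obtain ⟨z, rfl⟩ := ih _ (hn ▸ pg_card_subgroup_lt hH) (hG.to_subgroup H) (h.subgroup H) hw rfl
    exact ⟨z, rfl⟩
  have hmul : ∀ x y : G, ∃ z : G, z ^ p = x ^ p * y ^ p := by
    intro x y
    by_cases hc : IsCyclic G
    · have hxy : Commute x y := (isMulCommutative_iff.mp inferInstance) _ _
      exact ⟨x * y, hxy.mul_pow p⟩
    obtain ⟨c, hc1, he⟩ := h x y
    refine ih' _ (pg_zpowers_sup_commutator_ne_top hG hc (x * y)) _ ?_
    rw [← mul_inv_eq_iff_eq_mul] at he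
    rw [← he]
    refine mul_mem ?_ (inv_mem (pg_powerClosure_mono ?_ hc1))
    · simpa using pg_pow_mem_powerClosure (p := p) (n := 1) (mem_sup_left (mem_zpowers (x * y)) :
        x * y ∈ zpowers (x * y) ⊔ commutator G)
    · exact (commutator_mono le_top le_top).trans le_sup_right
  clear hn ih
  induction hw using closure_induction with
  | mem x hx =>
    obtain ⟨y, -, rfl⟩ := hx
    exact ⟨y, by simp⟩
  | one => exact ⟨1, one_pow _⟩
  | mul a b _ _ ha hb =>
    obtain ⟨a, rfl⟩ := ha
    obtain ⟨b, rfl⟩ := hb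
    exact hmul a b
  | inv a _ ha =>
    obtain ⟨a, rfl⟩ := ha
    exact ⟨a⁻¹, inv_pow _ _⟩

theorem PgWeakRegular.exists_pow_of_mem_powerClosure_one' {G : Type u} [Group G] [Finite G]
    (hG : IsPGroup p G) (h : PgWeakRegular p G) {H : Subgroup G} {w : G}
    (hw : w ∈ powerClosure p 1 H) : ∃ z ∈ H, z ^ p = w := by
  rw [← H.range_subtype, MonoidHom.range_eq_map, ← pg_map_powerClosure] at hw
  obtain ⟨w, hw, rfl⟩ := hw
  obtain ⟨z, rfl⟩ := (h.subgroup H).exists_pow_of_mem_powerClosure_one (hG.to_subgroup H) hw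
  exact ⟨z, z.2, rfl⟩

/-- In a regular `p`-group every element of `℧ₙ(H)` is a `p ^ n`-th power of an element of `H`. -/
theorem PgWeakRegular.exists_pow_of_mem_powerClosure {G : Type u} [Group G] [Finite G]
    (hG : IsPGroup p G) (h : PgWeakRegular p G) (n : ℕ) {H : Subgroup G} {w : G}
    (hw : w ∈ powerClosure p n H) : ∃ z ∈ H, z ^ p ^ n = w := by
  induction n generalizing H with
  | zero => exact ⟨w, pg_powerClosure_le hw, by simp⟩
  | succ n ih =>
    have : powerClosure p (n + 1) H ≤ powerClosure p n (powerClosure p 1 H) :=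
      pg_powerClosure_le_iff.mpr fun x hx => by
        rw [pow_succ', pow_mul]
        exact pg_pow_mem_powerClosure (by simpa using pg_pow_mem_powerClosure (p := p) (n := 1) hx)
    obtain ⟨z, hz, rfl⟩ := ih (this hw)
    obtain ⟨y, hy, rfl⟩ := h.exists_pow_of_mem_powerClosure_one' hG hz
    exact ⟨y, hy, by rw [pow_succ', pow_mul]⟩

theorem PgWeakRegular.pow_pow_eq_iff {G : Type u} [Group G] [Finite G] (hG : IsPGroup p G)
    (h : PgWeakRegular p G) (n : ℕ) (x y : G) :
    x ^ p ^ n = y ^ p ^ n ↔ (x⁻¹ * y) ^ p ^ n = 1 := by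
  induction n generalizing G with
  | zero => simp [inv_mul_eq_one]
  | succ n ih =>
    set W := omegaOne p (⊤ : Subgroup G)
    have hW : ∀ w : G, w ∈ W ↔ w ^ p = 1 := fun w => by simp [W, h.mem_omegaOne_iff hG]
    have := ih (hG.to_quotient W) (h.of_surjective _ (QuotientGroup.mk'_surjective W))
      (QuotientGroup.mk x) (QuotientGroup.mk y)
    rw [← QuotientGroup.mk_pow, ← QuotientGroup.mk_pow, ← QuotientGroup.mk_inv,
      ← QuotientGroup.mk_mul, ← QuotientGroup.mk_pow, QuotientGroup.eq, QuotientGroup.eq_one_iff,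
      hW, hW] at this
    rw [pow_succ, pow_mul, pow_mul, pow_mul, h.pow_eq_pow_iff hG, this]

theorem PgWeakRegular.commute_pow_of_commutator_pow {G : Type u} [Group G] [Finite G]
    (hG : IsPGroup p G) (h : PgWeakRegular p G) (n : ℕ) {a g : G} (hc : ⁅a⁻¹, g⁆ ^ p ^ n = 1) :
    Commute g (a ^ p ^ n) := by
  have := (h.pow_pow_eq_iff hG n a (g * a * g⁻¹)).mpr (by
    rw [← hc, commutatorElement_def]; congr 1; group)
  rw [conj_pow, eq_mul_inv_iff_mul_eq] at this
  exact this.symm

theorem PgWeakRegular.mul_pow_of_exponent {G : Type u} [Group G] [Finite G]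
    (hG : IsPGroup p G) (h : PgWeakRegular p G) (n : ℕ)
    (he : ∀ c ∈ commutator G, c ^ p ^ n = 1) (a b : G) :
    (a * b) ^ p ^ n = a ^ p ^ n * b ^ p ^ n := by
  induction n generalizing G with
  | zero => simp
  | succ n ih =>
    set W := omegaOne p (⊤ : Subgroup G)
    have hW : ∀ w : G, w ∈ W ↔ w ^ p = 1 := fun w => by simp [W, h.mem_omegaOne_iff hG]
    have hq := h.of_surjective _ (QuotientGroup.mk'_surjective W)
    have he' : ∀ c ∈ commutator (G ⧸ W), c ^ p ^ n = 1 := by
      intro c hc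
      rw [_root_.commutator_def, ← map_top_of_surjective _ (QuotientGroup.mk'_surjective W),
        ← map_commutator] at hc
      obtain ⟨c, hc, rfl⟩ := hc
      rw [← map_pow, QuotientGroup.mk'_apply, QuotientGroup.eq_one_iff, hW, ← pow_mul, ← pow_succ]
      exact he c hc
    have h1 := ih (hG.to_quotient W) hq he' (QuotientGroup.mk a) (QuotientGroup.mk b)
    rw [← QuotientGroup.mk_mul, ← QuotientGroup.mk_pow, ← QuotientGroup.mk_pow,
      ← QuotientGroup.mk_pow, ← QuotientGroup.mk_mul, QuotientGroup.eq, hW,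
      ← h.pow_eq_pow_iff hG] at h1
    obtain ⟨c, hc, h2⟩ := h (a ^ p ^ n) (b ^ p ^ n)
    have h3 : ⁅a ^ p ^ n, b ^ p ^ n⁆ ∈ W := by
      rw [← QuotientGroup.eq_one_iff]
      refine (map_commutatorElement (QuotientGroup.mk' W) _ _).trans (Commute.commutator_eq ?_)
      rw [map_pow]
      exact (hq.commute_pow_of_commutator_pow (hG.to_quotient W) n
        (he' _ (commutator_mem_commutator (mem_top _) (mem_top _)))).symm
    have h4 := pg_commutator_closure_pair_le (le_normalizer_of_normal (mem_top _))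
      (le_normalizer_of_normal (mem_top _)) h3
    have h5 : c = 1 := mem_bot.mp ((pg_powerClosure_le_iff.mpr fun w hw => by
      simpa using (hW w).mp (h4 hw) : _ ≤ ⊥) hc)
    rw [pow_succ, pow_mul, pow_mul, pow_mul, h1, h2, h5, mul_one]

omit hp in
/-- In the quotient of `H` by `℧ₙ(H')` the derived subgroup has exponent dividing `p ^ n`. -/
theorem pg_pow_eq_one_quotient_powerClosure {G : Type u} [Group G] (n : ℕ) :
    ∀ c ∈ commutator (G ⧸ powerClosure p n (commutator G)), c ^ p ^ n = 1 := by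
  intro c hc
  rw [_root_.commutator_def (G ⧸ powerClosure p n (commutator G)),
    ← map_top_of_surjective _ (QuotientGroup.mk'_surjective _), ← map_commutator] at hc
  obtain ⟨c, hc, rfl⟩ := hc
  rw [← map_pow, QuotientGroup.mk'_apply, QuotientGroup.eq_one_iff]
  exact pg_pow_mem_powerClosure hc

omit hp in
theorem pg_map_powerClosure_commutator_subtype {G : Type u} [Group G] (n : ℕ) (H : Subgroup G) :
    (powerClosure p n (commutator H)).map H.subtype = powerClosure p n ⁅H, H⁆ := by
  rw [pg_map_powerClosure, _root_.commutator_def, map_commutator, ← MonoidHom.range_eq_map,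
    range_subtype]

theorem PgWeakRegular.isRegularPGroup {G : Type u} [Group G] [Finite G]
    (hG : IsPGroup p G) (h : PgWeakRegular p G) : IsRegularPGroup p G := by
  refine ⟨hG, fun a b n => ?_⟩
  set H := closure ({a, b} : Set G)
  have ha : a ∈ H := subset_closure (by simp)
  have hb : b ∈ H := subset_closure (by simp)
  set N := powerClosure p n (commutator H)
  have h1 := ((h.subgroup H).of_surjective _ (QuotientGroup.mk'_surjective N)).mul_pow_of_exponent
    ((hG.to_subgroup H).to_quotient N) n (pg_pow_eq_one_quotient_powerClosure n)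
    (QuotientGroup.mk ⟨a, ha⟩) (QuotientGroup.mk ⟨b, hb⟩)
  rw [← QuotientGroup.mk_mul, ← QuotientGroup.mk_pow, ← QuotientGroup.mk_pow,
    ← QuotientGroup.mk_pow, ← QuotientGroup.mk_mul, eq_comm, QuotientGroup.eq] at h1
  refine ⟨(a ^ p ^ n * b ^ p ^ n)⁻¹ * (a * b) ^ p ^ n, ?_, by group⟩
  rw [← pg_map_powerClosure_commutator_subtype]
  exact ⟨_, h1, by simp⟩

theorem PgWeakRegular.commutator_powerClosure_le {G : Type u} [Group G] [Finite G]
    (hG : IsPGroup p G) (h : PgWeakRegular p G) (n : ℕ) (H : Subgroup G) :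
    ⁅powerClosure p n H, H⁆ ≤ powerClosure p n ⁅H, H⁆ := by
  have hn : H ≤ normalizer ((powerClosure p n ⁅H, H⁆ : Subgroup G) : Set G) :=
    pg_le_normalizer_powerClosure (normalizer_commutator_ge_left H H)
  refine pg_commutator_closure_le ?_ ?_
  · rintro _ ⟨x, hx, rfl⟩
    exact hn (pow_mem hx _)
  rintro _ ⟨x, hx, rfl⟩ g hg
  set N := powerClosure p n (commutator H)
  have h1 := ((h.subgroup H).of_surjective _
    (QuotientGroup.mk'_surjective N)).commute_pow_of_commutator_pow
    ((hG.to_subgroup H).to_quotient N) n (a := QuotientGroup.mk ⟨x, hx⟩)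
    (g := QuotientGroup.mk ⟨g, hg⟩) (pg_pow_eq_one_quotient_powerClosure n _
      (commutator_mem_commutator (mem_top _) (mem_top _)))
  have h2 : ⁅(⟨x, hx⟩ : H) ^ p ^ n, (⟨g, hg⟩ : H)⁆ ∈ N := by
    rw [← QuotientGroup.eq_one_iff]
    exact (map_commutatorElement (QuotientGroup.mk' N) _ _).trans h1.symm.commutator_eq
  rw [← pg_map_powerClosure_commutator_subtype]
  exact ⟨_, h2, by simp [commutatorElement_def]⟩

omit hp in
theorem pg_weakRegular_of_isRegularPGroup {G : Type*} [Group G] (h : IsRegularPGroup p G) :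
    PgWeakRegular p G := fun a b => by simpa using h.2 a b 1

end Cfsg.Lib
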